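import Mathlib
import Cfsg.Agent.SporadicA.Steiner22
import Cfsg.Agent.SporadicA.SteinerCount
set_option linter.all false

-- part: H870/Plane
section
/-!
# Projective planes of order 4: the labelling by a hyperoval

Let `L` be a Steiner system S(2, 5, 21) and `h : Fin 6 → α` name the points of a hyperoval (six points,
no three on a line).  The other fifteen points correspond to the fifteen partitions of the six points
into pairs.  `exists_standard_label` : there is a bijection `Fin 21 ≃ α` extending `h` under which the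
lines are the members of the fixed list `Ls`; `label_unique`: there is only one.
-/

set_option autoImplicit false
set_option linter.unusedSectionVars false

namespace Cfsg.Agent.H870.Plane

open Finset Cfsg.Agent.SporadicA.SteinerMask Cfsg.Agent.SporadicA.SteinerCount
open Cfsg.Agent.SporadicA.Steiner22 (M M_invol M_inj)

variable {α : Type*}

section basic

variable {L : Set (Finset α)}

theorem exists_line [DecidableEq α] (hL : Cfsg.IsSteinerSystem 2 5 L) {x y : α} (hxy : x ≠ y) :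
    ∃ l ∈ L, x ∈ l ∧ y ∈ l := by
  obtain ⟨b, ⟨hb, hs⟩, -⟩ := hL.2 {x, y} (card_pair hxy)
  exact ⟨b, hb, hs (by simp), hs (by simp)⟩

theorem line_eq [DecidableEq α] (hL : Cfsg.IsSteinerSystem 2 5 L) {b c : Finset α} (hb : b ∈ L)
    (hc : c ∈ L) {x y : α} (hxy : x ≠ y) (h1 : x ∈ b) (h2 : y ∈ b) (h3 : x ∈ c) (h4 : y ∈ c) :
    b = c := by
  apply eq_of_card_inter hL hb hc
  rw [← card_pair hxy]
  apply card_le_card
  intro w hw
  rw [mem_insert, mem_singleton] at hw
  rw [mem_inter]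
  rcases hw with rfl | rfl
  · exact ⟨h1, h3⟩
  · exact ⟨h2, h4⟩

variable [Fintype α] [DecidableEq α]

theorem deg (hα : Fintype.card α = 21) (hL : Cfsg.IsSteinerSystem 2 5 L) (F : Finset (Finset α))
    (hF : ∀ b, b ∈ F ↔ b ∈ L) (x : α) : (F.filter (fun b => x ∈ b)).card = 5 := by
  have := card_blocks_containing hL F hF {x} (by simp)
  rw [hα, card_singleton, show Nat.choose (5 - 1) (2 - 1) = 4 from by decide +kernel,
      show Nat.choose (21 - 1) (2 - 1) = 20 from by decide +kernel] at this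
  simp only [singleton_subset_iff] at this
  omega

theorem deg2 (hL : Cfsg.IsSteinerSystem 2 5 L) (F : Finset (Finset α))
    (hF : ∀ b, b ∈ F ↔ b ∈ L) {x y : α} (hxy : x ≠ y) :
    ((F.filter (fun b => x ∈ b)).filter (fun b => y ∈ b)).card = 1 := by
  obtain ⟨l, hl, h1, h2⟩ := exists_line hL hxy
  rw [card_eq_one]
  refine ⟨l, ?_⟩
  ext b
  rw [mem_filter, mem_filter, hF, mem_singleton]
  constructor
  · rintro ⟨⟨h3, h4⟩, h5⟩
    exact line_eq hL h3 hl hxy h4 h5 h1 h2
  · rintro rfl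
    exact ⟨⟨hl, h1⟩, h2⟩

/-- Five points, no two of them on a line with the point `x`: each line through `x` contains one. -/
theorem meets_one (hα : Fintype.card α = 21) (hL : Cfsg.IsSteinerSystem 2 5 L) {x : α}
    {S : Finset α} (hx : x ∉ S) (hS : S.card = 5) (h : ∀ l ∈ L, x ∈ l → (l ∩ S).card ≤ 1) :
    ∀ l ∈ L, x ∈ l → (l ∩ S).card = 1 := by
  classical
  obtain ⟨F, hF⟩ : ∃ F : Finset (Finset α), ∀ b, b ∈ F ↔ b ∈ L :=
    ⟨(Set.toFinite L).toFinset, fun b => by simp⟩
  have h1 := sum_inter (F.filter (fun b => x ∈ b)) S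
  rw [sum_congr rfl (g := fun _ => 1) (fun y hy => deg2 hL F hF
    (fun hxy => hx (by rw [hxy]; exact hy))), sum_const, hS, smul_eq_mul, mul_one] at h1
  have h2 : ∑ d ∈ F.filter (fun b => x ∈ b), (d ∩ S).card = ∑ d ∈ F.filter (fun b => x ∈ b), 1 := by
    rw [h1, sum_const, deg hα hL F hF x]
    rfl
  have h3 := (sum_eq_sum_iff_of_le (fun d hd => ?_)).1 h2
  · intro l hl hxl
    exact h3 l (mem_filter.2 ⟨(hF l).2 hl, hxl⟩)
  · rw [mem_filter, hF] at hd
    exact h d hd.1 hd.2

theorem inter_card (hα : Fintype.card α = 21) (hL : Cfsg.IsSteinerSystem 2 5 L) {l m : Finset α}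
    (hl : l ∈ L) (hm : m ∈ L) (hlm : l ≠ m) : (l ∩ m).card = 1 := by
  obtain ⟨x, hx, hxm⟩ : ∃ x ∈ l, x ∉ m := by
    by_contra hcon
    push Not at hcon
    exact hlm (eq_of_subset_of_card_le hcon (by rw [hL.1 l hl, hL.1 m hm]))
  refine meets_one hα hL hxm (hL.1 m hm) (fun k hk hxk => ?_) l hl hx
  have := card_inter_lt hL hk hm (fun h => hxm (h ▸ hxk))
  omega

theorem oval_card (hα : Fintype.card α = 21) (hL : Cfsg.IsSteinerSystem 2 5 L) {H : Finset α}
    (hH : H.card = 6) (hi : ∀ l ∈ L, (l ∩ H).card ≤ 2) :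
    ∀ l ∈ L, (l ∩ H).card = 0 ∨ (l ∩ H).card = 2 := by
  intro l hl
  by_cases h0 : l ∩ H = ∅
  · left
    rw [h0, card_empty]
  · right
    obtain ⟨x, hx⟩ := nonempty_iff_ne_empty.2 h0
    obtain ⟨hxl, hxH⟩ := mem_inter.1 hx
    have key : ∀ k, x ∈ k → (k ∩ H).card = (k ∩ H.erase x).card + 1 := by
      intro k hk
      rw [← card_insert_of_notMem (a := x) (s := k ∩ H.erase x) (by simp)]
      congr 1
      ext y
      simp only [mem_inter, mem_insert, mem_erase]
      by_cases hyx : y = x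
      · subst hyx
        simp [hk, hxH]
      · simp [hyx]
    rw [key l hxl]
    rw [meets_one hα hL (notMem_erase x H) (by rw [card_erase_of_mem hxH, hH])
      (fun k hk hxk => ?_) l hl hxl]
    have := hi k hk
    rw [key k hxk] at this
    omega

end basic

/-! ### The labelling -/

variable [Fintype α] [DecidableEq α]

/-- The data: a plane and a named hyperoval. -/
structure Frame (L : Set (Finset α)) (h : Fin 6 → α) : Prop where
  st : Cfsg.IsSteinerSystem 2 5 L
  inter : ∀ b ∈ L, ∀ c ∈ L, b ≠ c → (b ∩ c).card = 1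
  inj : Function.Injective h
  par : ∀ b ∈ L, (b ∩ Finset.univ.image h).card = 0 ∨ (b ∩ Finset.univ.image h).card = 2

theorem frame_of_oval (hα : Fintype.card α = 21) {L : Set (Finset α)}
    (hL : Cfsg.IsSteinerSystem 2 5 L) {h : Fin 6 → α} (hh : Function.Injective h)
    (hi : ∀ l ∈ L, (l ∩ Finset.univ.image h).card ≤ 2) : Frame L h where
  st := hL
  inter := fun _ hb _ hc hbc => inter_card hα hL hb hc hbc
  inj := hh
  par := oval_card hα hL (by rw [card_image_of_injective _ hh, card_univ, Fintype.card_fin]) hi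

variable {L : Set (Finset α)} {h : Fin 6 → α}

theorem Frame.mem_h (_F : Frame L h) (i : Fin 6) : h i ∈ Finset.univ.image h :=
  mem_image_of_mem _ (mem_univ _)

theorem Frame.exists_D (F : Frame L h) : ∃ D : Fin 6 → Fin 6 → Finset α,
    ∀ i j, i ≠ j → D i j ∈ L ∧ h i ∈ D i j ∧ h j ∈ D i j := by
  have : ∀ i j, ∃ D : Finset α, i ≠ j → D ∈ L ∧ h i ∈ D ∧ h j ∈ D := by
    intro i j
    by_cases hij : i = j
    · exact ⟨∅, fun hne => absurd hij hne⟩
    · obtain ⟨b, hb, h1, h2⟩ := exists_line F.st (fun hh => hij (F.inj hh))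
      exact ⟨b, fun _ => ⟨hb, h1, h2⟩⟩
  choose D hD using this
  exact ⟨D, hD⟩

variable {D : Fin 6 → Fin 6 → Finset α}

theorem Frame.mem_D (F : Frame L h)
    (hD : ∀ i j, i ≠ j → D i j ∈ L ∧ h i ∈ D i j ∧ h j ∈ D i j)
    {i j t : Fin 6} (hij : i ≠ j) (ht : h t ∈ D i j) : t = i ∨ t = j := by
  by_contra hcon
  rw [not_or] at hcon
  obtain ⟨h1, h2, h3⟩ := hD i j hij
  have h4 : 3 ≤ (D i j ∩ Finset.univ.image h).card := by
    have h5 : ({h t, h i, h j} : Finset α).card = 3 := by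
      rw [card_eq_three]
      exact ⟨_, _, _, fun hh => hcon.1 (F.inj hh), fun hh => hcon.2 (F.inj hh),
        fun hh => hij (F.inj hh), rfl⟩
    rw [← h5]
    apply card_le_card
    intro w hw
    simp only [mem_insert, mem_singleton] at hw
    rw [mem_inter]
    rcases hw with rfl | rfl | rfl
    · exact ⟨ht, F.mem_h _⟩
    · exact ⟨h2, F.mem_h _⟩
    · exact ⟨h3, F.mem_h _⟩
  rcases F.par _ h1 with h | h <;> omega

theorem Frame.D_symm (F : Frame L h)
    (hD : ∀ i j, i ≠ j → D i j ∈ L ∧ h i ∈ D i j ∧ h j ∈ D i j)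
    {i j : Fin 6} (hij : i ≠ j) : D i j = D j i := by
  obtain ⟨h1, h2, h3⟩ := hD i j hij
  obtain ⟨h1', h2', h3'⟩ := hD j i hij.symm
  exact line_eq F.st h1 h1' (fun hh => hij (F.inj hh)) h2 h3 h3' h2'

/-- the line through `h i` and an outer point `x` meets the hyperoval in one more point -/
theorem Frame.exists_partner (F : Frame L h)
    (hD : ∀ i j, i ≠ j → D i j ∈ L ∧ h i ∈ D i j ∧ h j ∈ D i j)
    {x : α} (hx : ∀ i, h i ≠ x) (i : Fin 6) : ∃ t, i ≠ t ∧ x ∈ D i t := by
  obtain ⟨c, hc, h1, h3⟩ := exists_line F.st (hx i)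
  have hmem : h i ∈ c ∩ Finset.univ.image h := mem_inter.2 ⟨h1, F.mem_h i⟩
  have h2' : (c ∩ Finset.univ.image h).card = 2 := by
    rcases F.par c hc with h0 | h0
    · rw [card_eq_zero] at h0
      rw [h0] at hmem
      exact absurd hmem (notMem_empty _)
    · exact h0
  obtain ⟨y, hy, hyi⟩ : ∃ y ∈ c ∩ Finset.univ.image h, y ≠ h i :=
    Finset.exists_mem_ne (by omega) _
  obtain ⟨hy1, hy2⟩ := mem_inter.1 hy
  obtain ⟨t, -, rfl⟩ := mem_image.1 hy2
  have hit : i ≠ t := fun hh => hyi (by rw [hh])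
  refine ⟨t, hit, ?_⟩
  obtain ⟨d1, d2, d3⟩ := hD i t hit
  rw [line_eq F.st d1 hc (fun hh => hit (F.inj hh)) d2 d3 h1 hy1]
  exact h3

theorem Frame.partner_unique (F : Frame L h)
    (hD : ∀ i j, i ≠ j → D i j ∈ L ∧ h i ∈ D i j ∧ h j ∈ D i j)
    {x : α} (hx : ∀ i, h i ≠ x) {i t u : Fin 6} (hit : i ≠ t) (hiu : i ≠ u)
    (h1 : x ∈ D i t) (h2 : x ∈ D i u) : t = u := by
  obtain ⟨d1, d2, d3⟩ := hD i t hit
  obtain ⟨e1, e2, e3⟩ := hD i u hiu
  have := line_eq F.st d1 e1 (hx i) d2 h1 e2 h2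
  rw [← this] at e3
  rcases F.mem_D hD hit e3 with h | h
  · exact absurd h.symm hiu
  · exact h.symm

theorem exists_other (s : Fin 6 → Fin 6) (hs : ∀ i, s i ≠ i ∧ s (s i) = i) :
    ∃ a : Fin 6, a ≠ 0 ∧ a ≠ s 0 ∧ s a ≠ 0 ∧ s a ≠ s 0 := by
  obtain ⟨a, ha⟩ : ∃ a : Fin 6, a ∉ ({0, s 0} : Finset (Fin 6)) := by
    by_contra hcon
    push Not at hcon
    have : (Finset.univ : Finset (Fin 6)) ⊆ {0, s 0} := fun a _ => hcon a
    have h1 := card_le_card this
    have h2 : ({0, s 0} : Finset (Fin 6)).card ≤ 2 := card_le_two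
    rw [card_univ, Fintype.card_fin] at h1
    omega
  simp only [mem_insert, mem_singleton, not_or] at ha
  obtain ⟨ha0, haj⟩ := ha
  refine ⟨a, ha0, haj, ?_, ?_⟩
  · intro hh
    have := (hs a).2
    rw [hh] at this
    exact haj this.symm
  · intro hh
    have := (hs a).2
    rw [hh, (hs 0).2] at this
    exact ha0 this.symm

theorem Frame.D_ne (F : Frame L h)
    (hD : ∀ i j, i ≠ j → D i j ∈ L ∧ h i ∈ D i j ∧ h j ∈ D i j)
    {i j k l : Fin 6} (hij : i ≠ j) (hkl : k ≠ l) (h1 : k ≠ i) (h2 : l ≠ i) :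
    D i j ≠ D k l := by
  intro hh
  obtain ⟨d1, d2, d3⟩ := hD i j hij
  rw [hh] at d2
  rcases F.mem_D hD hkl d2 with h | h
  · exact h1 h.symm
  · exact h2 h.symm

/-- the point of a partition is unique -/
theorem Frame.point_unique (F : Frame L h)
    (hD : ∀ i j, i ≠ j → D i j ∈ L ∧ h i ∈ D i j ∧ h j ∈ D i j)
    (s : Fin 6 → Fin 6) (hs : ∀ i, s i ≠ i ∧ s (s i) = i) {x y : α}
    (hx : ∀ i, x ∈ D i (s i)) (hy : ∀ i, y ∈ D i (s i)) : x = y := by
  obtain ⟨a, ha0, haj, hr0, hrj⟩ := exists_other s hs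
  by_contra hxy
  obtain ⟨d1, -, -⟩ := hD 0 (s 0) (hs 0).1.symm
  obtain ⟨e1, -, -⟩ := hD a (s a) (hs a).1.symm
  exact F.D_ne hD (hs 0).1.symm (hs a).1.symm ha0 hr0
    (line_eq F.st d1 e1 hxy (hx 0) (hy 0) (hx a) (hy a))

/-- every partition of the hyperoval into pairs belongs to a point outside -/
theorem Frame.exists_point (F : Frame L h)
    (hD : ∀ i j, i ≠ j → D i j ∈ L ∧ h i ∈ D i j ∧ h j ∈ D i j)
    (s : Fin 6 → Fin 6) (hs : ∀ i, s i ≠ i ∧ s (s i) = i) :
    ∃ x, (∀ i, h i ≠ x) ∧ ∀ i, x ∈ D i (s i) := by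
  obtain ⟨a, ha0, haj, hr0, hrj⟩ := exists_other s hs
  have n0 : (0 : Fin 6) ≠ s 0 := (hs 0).1.symm
  have na : a ≠ s a := (hs a).1.symm
  obtain ⟨d1, d2, d3⟩ := hD 0 (s 0) n0
  obtain ⟨e1, e2, e3⟩ := hD a (s a) na
  have hne : D 0 (s 0) ≠ D a (s a) := F.D_ne hD n0 na ha0 hr0
  have hcard : (D 0 (s 0) ∩ D a (s a)).card = 1 := F.inter _ d1 _ e1 hne
  obtain ⟨x, hx⟩ := card_pos.1 (by omega : 0 < (D 0 (s 0) ∩ D a (s a)).card)
  obtain ⟨hx1, hx2⟩ := mem_inter.1 hx
  have hxh : ∀ i, h i ≠ x := by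
    rintro i rfl
    rcases F.mem_D hD n0 hx1 with h1 | h1 <;> rcases F.mem_D hD na hx2 with h2 | h2
    · exact ha0 (h2.symm.trans h1)
    · exact hr0 (h2.symm.trans h1)
    · exact haj (h2.symm.trans h1)
    · exact hrj (h2.symm.trans h1)
  refine ⟨x, hxh, ?_⟩
  have hx1' : x ∈ D (s 0) 0 := by rw [← F.D_symm hD n0]; exact hx1
  have hx2' : x ∈ D (s a) a := by rw [← F.D_symm hD na]; exact hx2
  intro i
  by_cases i0 : i = 0
  · rw [i0]; exact hx1
  by_cases ij : i = s 0
  · rw [ij, (hs 0).2]; exact hx1'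
  by_cases ia : i = a
  · rw [ia]; exact hx2
  by_cases ir : i = s a
  · rw [ir, (hs a).2]; exact hx2'
  obtain ⟨t, hit, hxt⟩ := F.exists_partner hD hxh i
  have hxt' : x ∈ D t i := by rw [← F.D_symm hD hit]; exact hxt
  have t0 : t ≠ 0 := by
    rintro rfl
    exact ij (F.partner_unique hD hxh hit.symm n0 hxt' hx1)
  have tj : t ≠ s 0 := by
    rintro rfl
    exact i0 (F.partner_unique hD hxh hit.symm n0.symm hxt' hx1')
  have ta : t ≠ a := by
    rintro rfl
    exact ir (F.partner_unique hD hxh hit.symm na hxt' hx2)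
  have tr : t ≠ s a := by
    rintro rfl
    exact ia (F.partner_unique hD hxh hit.symm na.symm hxt' hx2')
  have si0 : s i ≠ 0 := fun hh => ij (by rw [← hh, (hs i).2])
  have sij : s i ≠ s 0 := fun hh => i0 (by rw [← (hs i).2, hh, (hs 0).2])
  have sia : s i ≠ a := fun hh => ir (by rw [← hh, (hs i).2])
  have sir : s i ≠ s a := fun hh => ia (by rw [← (hs i).2, hh, (hs a).2])
  have sii : s i ≠ i := (hs i).1
  have : t = s i := by
    by_contra hts
    have hc : ({0, s 0, a, s a, i, t, s i} : Finset (Fin 6)).card = 7 := by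
      rw [card_insert_of_notMem, card_insert_of_notMem, card_insert_of_notMem,
        card_insert_of_notMem, card_insert_of_notMem, card_insert_of_notMem,
        card_singleton]
      all_goals simp only [mem_insert, mem_singleton, not_or]
      · exact hts
      · exact ⟨hit, sii.symm⟩
      · exact ⟨Ne.symm ir, tr.symm, sir.symm⟩
      · exact ⟨na, Ne.symm ia, ta.symm, sia.symm⟩
      · exact ⟨Ne.symm haj, hrj.symm, Ne.symm ij, tj.symm, sij.symm⟩
      · exact ⟨n0, Ne.symm ha0, hr0.symm, Ne.symm i0, t0.symm, si0.symm⟩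
    have := Finset.card_le_univ ({0, s 0, a, s a, i, t, s i} : Finset (Fin 6))
    rw [hc, Fintype.card_fin] at this
    omega
  rw [← this]
  exact hxt

/-- labelling of the points in terms of the hyperoval and the points of the partitions -/
def lab (h : Fin 6 → α) (P : Fin 15 → α) (y : Fin 21) : α :=
  if h6 : (y : ℕ) < 6 then h ⟨y, h6⟩ else P ⟨y - 6, by omega⟩

theorem lab_inj {h : Fin 6 → α} {P : Fin 15 → α} (hh : Function.Injective h)
    (hP : Function.Injective P) (hPh : ∀ k i, P k ≠ h i) : Function.Injective (lab h P) := by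
  intro a b hab
  unfold lab at hab
  split_ifs at hab with h1 h2 h3
  · have := hh hab
    simp only [Fin.mk.injEq] at this
    exact Fin.ext this
  · exact absurd hab.symm (hPh _ _)
  · exact absurd hab (hPh _ _)
  · have := hP hab
    simp only [Fin.mk.injEq] at this
    exact Fin.ext (by omega)

/-- the words of the fifteen lines through two points of the hyperoval -/
def duadMask : Fin 6 → Fin 6 → ℕ :=
  ![![0, 451, 3589, 28681, 229393, 1835041],
    ![451, 0, 299014, 590346, 1057810, 149538],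
    ![3589, 299014, 0, 1179724, 540820, 74020],
    ![28681, 590346, 1179724, 0, 264472, 33960],
    ![229393, 1057810, 540820, 264472, 0, 4720],
    ![1835041, 149538, 74020, 33960, 4720, 0]]

theorem duadMask_spec : ∀ i j : Fin 6, i ≠ j → popc 21 (duadMask i j) = 5 ∧
    ∀ x : Fin 21, (duadMask i j).testBit x = true →
      (∀ h6 : (x : ℕ) < 6, (⟨x, h6⟩ : Fin 6) = i ∨ (⟨x, h6⟩ : Fin 6) = j) ∧
      (∀ h7 : ¬ (x : ℕ) < 6, M ⟨x - 6, by omega⟩ i = j) := by
  decide +kernel

theorem duadMask_spec' : ∀ i j : Fin 6, i ≠ j → duadMask i j < 2 ^ 21 ∧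
    (duadMask i j).testBit i = true ∧ (duadMask i j).testBit j = true ∧
      ∀ k : Fin 15, M k i = j → (duadMask i j).testBit (k + 6) = true := by
  decide +kernel

/-- The labelling of the points of a plane of order 4. -/
theorem exists_label (hα : Fintype.card α = 21) (F : Frame L h) :
    ∃ e : Fin 21 ≃ α, (∀ i : Fin 6, e (Fin.castLE (by norm_num) i) = h i) ∧
      ∀ i j, i ≠ j → (ofMask 21 (duadMask i j)).map e.toEmbedding ∈ L := by
  obtain ⟨D, hD⟩ := F.exists_D
  have hP := fun k : Fin 15 => F.exists_point hD (M k) (M_invol k)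
  choose P hP1 hP3 using hP
  have hPinj : Function.Injective P := by
    intro k l hkl
    apply M_inj
    intro i
    have h1 := hP3 l i
    rw [← hkl] at h1
    exact F.partner_unique hD (hP1 k) (M_invol k i).1.symm (M_invol l i).1.symm
      (hP3 k i) h1
  have hinj : Function.Injective (lab h P) :=
    lab_inj F.inj hPinj (fun k i => (hP1 k i).symm)
  have hbij : Function.Bijective (lab h P) := by
    rw [Fintype.bijective_iff_injective_and_card]
    exact ⟨hinj, by rw [Fintype.card_fin, hα]⟩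
  refine ⟨Equiv.ofBijective _ hbij, ?_, ?_⟩
  · intro i
    show lab h P _ = _
    unfold lab
    rw [dif_pos (by simp)]
    rfl
  · intro i j hij
    obtain ⟨d1, d2, d3⟩ := hD i j hij
    obtain ⟨m1, m2⟩ := duadMask_spec i j hij
    have : (ofMask 21 (duadMask i j)).map (Equiv.ofBijective _ hbij).toEmbedding = D i j := by
      apply Finset.eq_of_subset_of_card_le
      · intro y hy
        obtain ⟨x, hx, rfl⟩ := mem_map.1 hy
        rw [mem_ofMask] at hx
        obtain ⟨h6, h7⟩ := m2 x hx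
        show lab h P x ∈ _
        unfold lab
        split_ifs with c1
        · rcases h6 c1 with hh | hh
          · rw [hh]; exact d2
          · rw [hh]; exact d3
        · have := hP3 ⟨(x : ℕ) - 6, by omega⟩ i
          rw [h7 c1] at this
          exact this
      · rw [card_map, card_ofMask, m1, F.st.1 _ d1]
    rw [this]
    exact d1

/-! ### The lines of the labelled plane -/

/-- the fifteen known lines -/
def K : List ℕ := [451, 3589, 4720, 28681, 33960, 74020, 149538, 229393, 264472, 299014, 540820,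
  590346, 1057810, 1179724, 1835041]

/-- all the twenty-one lines -/
def Ls : List ℕ := [451, 3589, 4720, 28681, 33960, 74020, 149538, 229393, 264472, 299014, 345152,
  402048, 540820, 567360, 590346, 660736, 1057810, 1098496, 1120384, 1179724, 1835041]

/-- a word with more than one 1, or with none when `b` holds -/
def odd1 (x : ℕ) (b : Bool) : Bool :=
  bif Nat.beq x 0 then b else !(Nat.beq (x &&& (x - 1)) 0)

theorem odd1_eq_false {f x : ℕ} {b : Bool} (hx : x < 2 ^ f) (h2 : popc f x ≤ 1)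
    (h1 : b = true → popc f x ≠ 0) : odd1 x b = false := by
  unfold odd1
  by_cases h0 : x = 0
  · rw [h0, show Nat.beq 0 0 = true from rfl, cond_true]
    cases b with
    | false => rfl
    | true => exact absurd (by rw [h0, popc_of_zero]) (h1 rfl)
  rw [beq_false h0, cond_false]
  have hy : x &&& (x - 1) < 2 ^ f := lt_of_le_of_lt Nat.and_le_left hx
  have e1 := popc_drop f x h0 hx
  by_cases hy0 : x &&& (x - 1) = 0
  · rw [hy0]; rfl
  · have := popc_pos hy0 hy
    omega

/-- criterion for dropping a branch -/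
def bad (j h : ℕ) : Bool := K.any fun k => odd1 (h &&& (k >>> j)) (Nat.beq (k % 2 ^ j) 0)

theorem bad_eq_false {c : ℕ} (hc : c < 2 ^ 21)
    (hk : ∀ k ∈ K, popc 21 (c &&& k) = 1) (j : ℕ) :
    bad j (c >>> j) = false := by
  rw [bad, List.any_eq_false]
  intro k hkK
  rw [Bool.not_eq_true]
  have hck : c &&& k < 2 ^ 21 := lt_of_le_of_lt Nat.and_le_left hc
  have e1 : (c >>> j) &&& (k >>> j) = (c &&& k) >>> j := by rw [Nat.shiftRight_and_distrib]
  have e2 := popc_add j 21 (c &&& k)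
  have e3 : popc (j + 21) (c &&& k) = popc 21 (c &&& k) := popc_eq_of_le hck (by omega)
  rw [e3] at e2
  rw [e1]
  refine odd1_eq_false (f := 21) (lt_of_le_of_lt (Nat.shiftRight_le _ _) hck) ?_ ?_
  · have := hk k hkK
    omega
  · intro hb
    have hb' := Nat.eq_of_beq_eq_true hb
    rw [popc_mod_zero j c k hb'] at e2
    have := hk k hkK
    omega

theorem search_check : searchR bad Ls 21 0 5 = true := by decide +kernel

theorem K_sub_Ls : ∀ k ∈ K, k ∈ Ls := by decide +kernel

theorem mem_K : ∀ k ∈ K, k < 2 ^ 21 ∧ (∃ i j : Fin 6, i ≠ j ∧ k = duadMask i j) := by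
  decide +kernel

theorem duad_mem_Ls : ∀ i j : Fin 6, i ≠ j → duadMask i j ∈ Ls := by
  decide +kernel

theorem mem_Ls {c : ℕ} (hc : c < 2 ^ 21) (hc6 : popc 21 c = 5)
    (hk : ∀ k ∈ K, c = k ∨ popc 21 (c &&& k) = 1) : c ∈ Ls := by
  by_cases hcK : c ∈ K
  · exact K_sub_Ls c hcK
  · refine searchR_sound (S := fun c => c < 2 ^ 21 ∧
      ∀ k ∈ K, popc 21 (c &&& k) = 1) (fun c hc j => bad_eq_false hc.1 hc.2 j)
      21 0 5 search_check c ⟨hc, fun k hkK => ?_⟩ hc6 (Nat.shiftRight_eq_zero _ _ hc)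
    exact (hk k hkK).resolve_left (fun h => hcK (h ▸ hkK))

theorem Ls_spec : ∀ a ∈ Ls, a < 2 ^ 21 ∧ 2 ≤ popc 21 a := by decide +kernel

theorem Ls_apart : ∀ a ∈ Ls, ∀ b ∈ Ls, 2 ≤ popc 21 (a &&& b) → a = b := by
  decide +kernel

/-- The labelling of a plane of order 4 by a named hyperoval, with all the lines known. -/
theorem exists_standard_label (hα : Fintype.card α = 21) (F : Frame L h) :
    ∃ e : Fin 21 ≃ α, (∀ i : Fin 6, e (Fin.castLE (by norm_num) i) = h i) ∧
      ∀ s : Finset (Fin 21), s.map e.toEmbedding ∈ L ↔ mask s ∈ Ls := by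
  obtain ⟨e, he1, he2⟩ := exists_label hα F
  refine ⟨e, he1, ?_⟩
  have hS := steiner_pull F.st e
  have hSinter : ∀ s ∈ {s : Finset (Fin 21) | s.map e.toEmbedding ∈ L},
      ∀ k ∈ {s : Finset (Fin 21) | s.map e.toEmbedding ∈ L}, s = k ∨ (s ∩ k).card = 1 := by
    intro s hs k hk
    by_cases hsk : s = k
    · exact Or.inl hsk
    · right
      exact inter_card (by simp) hS hs hk hsk
  have hK : ∀ k ∈ K, (ofMask 21 k) ∈ {s : Finset (Fin 21) | s.map e.toEmbedding ∈ L} ∧
      k < 2 ^ 21 := by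
    intro k hk
    obtain ⟨h1, i, j, hij, rfl⟩ := mem_K k hk
    exact ⟨he2 i j hij, h1⟩
  refine mem_iff_of_subset hS ?_ Ls_spec Ls_apart
  intro s hs
  apply mem_Ls (mask_lt s)
  · rw [popc_mask, hS.1 s hs]
  · intro k hk
    obtain ⟨h1, h2⟩ := hK k hk
    have e1 := mask_ofMask h2
    rcases hSinter s hs _ h1 with h3 | h3
    · left
      rw [h3, e1]
    · right
      rw [← e1, popc_mask_and, h3]

/-- The labelling is unique. -/
theorem label_unique (F : Frame L h) {e e' : Fin 21 ≃ α}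
    (he : ∀ i : Fin 6, e (Fin.castLE (by norm_num) i) = h i)
    (he' : ∀ i : Fin 6, e' (Fin.castLE (by norm_num) i) = h i)
    (hs : ∀ s : Finset (Fin 21), s.map e.toEmbedding ∈ L ↔ mask s ∈ Ls)
    (hs' : ∀ s : Finset (Fin 21), s.map e'.toEmbedding ∈ L ↔ mask s ∈ Ls) : e = e' := by
  obtain ⟨D, hD⟩ := F.exists_D
  have key : ∀ f : Fin 21 ≃ α, (∀ i : Fin 6, f (Fin.castLE (by norm_num) i) = h i) →
      (∀ s : Finset (Fin 21), s.map f.toEmbedding ∈ L ↔ mask s ∈ Ls) →
      ∀ (x : Fin 21) (hx : ¬ (x : ℕ) < 6), ∀ i, f x ∈ D i (M ⟨x - 6, by omega⟩ i) := by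
    intro f hf hfs x hx i
    obtain ⟨k, hk⟩ : ∃ k : Fin 15, k = ⟨x - 6, by omega⟩ := ⟨_, rfl⟩
    rw [← hk]
    have hij : i ≠ M k i := (M_invol k i).1.symm
    obtain ⟨a1, a2, a3, a4⟩ := duadMask_spec' i (M k i) hij
    have h1 : (ofMask 21 (duadMask i (M k i))).map f.toEmbedding ∈ L := by
      rw [hfs, mask_ofMask a1]
      exact duad_mem_Ls _ _ hij
    obtain ⟨d1, d2, d3⟩ := hD i (M k i) hij
    have h2 : (ofMask 21 (duadMask i (M k i))).map f.toEmbedding = D i (M k i) := by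
      apply line_eq F.st h1 d1 (x := h i) (y := h (M k i)) (fun hh => hij (F.inj hh)) ?_ ?_ d2 d3
      · rw [← hf i]
        apply mem_map_of_mem
        rw [mem_ofMask]
        exact a2
      · rw [← hf (M k i)]
        apply mem_map_of_mem
        rw [mem_ofMask]
        exact a3
    rw [← h2]
    apply mem_map_of_mem
    rw [mem_ofMask]
    have h3 := a4 k rfl
    have h4 : (k : ℕ) + 6 = x := by
      rw [hk]
      show (x : ℕ) - 6 + 6 = x
      omega
    rw [h4] at h3
    exact h3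
  ext x
  by_cases hx : (x : ℕ) < 6
  · have : x = Fin.castLE (by norm_num) (⟨x, hx⟩ : Fin 6) := rfl
    rw [this, he, he']
  · exact F.point_unique hD _ (M_invol _) (key e he hs x hx) (key e' he' hs' x hx)

end Cfsg.Agent.H870.Plane
end

-- part: H870/Oval
section
/-!
# Hyperovals of projective planes of order 4

`exists_oval` : four points of a plane of order 4, no three on a line, lie in a hyperoval;
`exists_four` : there are such points.
-/

set_option autoImplicit false
set_option linter.unusedSectionVars false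

namespace Cfsg.Agent.H870.Oval

open Finset Cfsg.Agent.SporadicA.SteinerMask Cfsg.Agent.SporadicA.SteinerCount
  Cfsg.Agent.H870.Plane

variable {α : Type*} [Fintype α] [DecidableEq α] {L : Set (Finset α)}

/-- two points of a small intersection -/
theorem two_le_card {s : Finset α} {x y : α} (hxy : x ≠ y) (hx : x ∈ s) (hy : y ∈ s) :
    2 ≤ s.card := by
  rw [← card_pair hxy]
  apply card_le_card
  intro w hw
  rw [mem_insert, mem_singleton] at hw
  rcases hw with rfl | rfl
  · exact hx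
  · exact hy

theorem three_le_card {s : Finset α} {x y z : α} (hxy : x ≠ y) (hxz : x ≠ z) (hyz : y ≠ z)
    (hx : x ∈ s) (hy : y ∈ s) (hz : z ∈ s) : 3 ≤ s.card := by
  have h5 : ({x, y, z} : Finset α).card = 3 := by
    rw [card_eq_three]
    exact ⟨_, _, _, hxy, hxz, hyz, rfl⟩
  rw [← h5]
  apply card_le_card
  intro w hw
  simp only [mem_insert, mem_singleton] at hw
  rcases hw with rfl | rfl | rfl
  · exact hx
  · exact hy
  · exact hz

/-- at most nineteen points are on the sides of a quadrangle -/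
theorem exists_two_free (hα : Fintype.card α = 21) (hL : Cfsg.IsSteinerSystem 2 5 L) {S : Finset α}
    (hS : S.card = 4) (hi : ∀ l ∈ L, (l ∩ S).card ≤ 2) :
    ∃ e f : α, e ≠ f ∧ (∀ l ∈ L, e ∈ l → (l ∩ S).card ≤ 1) ∧
      (∀ l ∈ L, f ∈ l → (l ∩ S).card ≤ 1) := by
  obtain ⟨a, S', ha, rfl, hS'⟩ := card_eq_succ.1 hS
  obtain ⟨b, c, d, hbc, hbd, hcd, rfl⟩ := card_eq_three.1 hS'
  simp only [mem_insert, mem_singleton, not_or] at ha
  obtain ⟨hab, hac, had⟩ := ha
  have mem3 : ∀ l ∈ L, ∀ x y z : α, x ≠ y → x ≠ z → y ≠ z → x ∈ ({a, b, c, d} : Finset α) →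
      y ∈ ({a, b, c, d} : Finset α) → z ∈ ({a, b, c, d} : Finset α) → x ∈ l → y ∈ l → z ∉ l := by
    intro l hl x y z h1 h2 h3 h4 h5 h6 h7 h8 h9
    have := three_le_card h1 h2 h3 (mem_inter.2 ⟨h7, h4⟩) (mem_inter.2 ⟨h8, h5⟩)
      (mem_inter.2 ⟨h9, h6⟩)
    have := hi l hl
    omega
  obtain ⟨ab, ab1, ab2, ab3⟩ := exists_line hL hab
  obtain ⟨ac, ac1, ac2, ac3⟩ := exists_line hL hac
  obtain ⟨ad, ad1, ad2, ad3⟩ := exists_line hL had
  obtain ⟨bc, bc1, bc2, bc3⟩ := exists_line hL hbc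
  obtain ⟨bd, bd1, bd2, bd3⟩ := exists_line hL hbd
  obtain ⟨cd, cd1, cd2, cd3⟩ := exists_line hL hcd
  have n1 : ab ≠ cd := by
    rintro rfl
    exact mem3 _ ab1 a b c hab hac hbc (by simp) (by simp) (by simp) ab2 ab3 cd2
  have n2 : ac ≠ bd := by
    rintro rfl
    exact mem3 _ ac1 a c b hac hab hbc.symm (by simp) (by simp) (by simp) ac2 ac3 bd2
  have n3 : ad ≠ bc := by
    rintro rfl
    exact mem3 _ ad1 a d b had hab hbd.symm (by simp) (by simp) (by simp) ad2 ad3 bc2
  have c9 : ∀ l ∈ L, ∀ m ∈ L, l ≠ m → (l ∪ m).card = 9 := by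
    intro l hl m hm hlm
    have h1 := card_union_add_card_inter l m
    rw [inter_card hα hL hl hm hlm, hL.1 l hl, hL.1 m hm] at h1
    omega
  have c5 : ∀ U V : Finset α, V.card = 9 → ({a, b, c, d} : Finset α) ⊆ U →
      ({a, b, c, d} : Finset α) ⊆ V → (U ∪ V).card ≤ U.card + 5 := by
    intro U V hV h1 h2
    have h3 := card_union_add_card_inter U V
    have h4 := card_le_card (subset_inter h1 h2)
    omega
  have s1 : ({a, b, c, d} : Finset α) ⊆ ab ∪ cd := by
    intro x hx
    simp only [mem_insert, mem_singleton] at hx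
    rw [mem_union]
    rcases hx with rfl | rfl | rfl | rfl
    · exact Or.inl ab2
    · exact Or.inl ab3
    · exact Or.inr cd2
    · exact Or.inr cd3
  have s2 : ({a, b, c, d} : Finset α) ⊆ ac ∪ bd := by
    intro x hx
    simp only [mem_insert, mem_singleton] at hx
    rw [mem_union]
    rcases hx with rfl | rfl | rfl | rfl
    · exact Or.inl ac2
    · exact Or.inr bd2
    · exact Or.inl ac3
    · exact Or.inr bd3
  have s3 : ({a, b, c, d} : Finset α) ⊆ ad ∪ bc := by
    intro x hx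
    simp only [mem_insert, mem_singleton] at hx
    rw [mem_union]
    rcases hx with rfl | rfl | rfl | rfl
    · exact Or.inl ad2
    · exact Or.inr bc2
    · exact Or.inr bc3
    · exact Or.inl ad3
  have u1 := c5 (ab ∪ cd) (ac ∪ bd) (c9 _ ac1 _ bd1 n2) s1 s2
  have u2 := c5 ((ab ∪ cd) ∪ (ac ∪ bd)) (ad ∪ bc) (c9 _ ad1 _ bc1 n3)
    (s1.trans subset_union_left) s3
  rw [c9 _ ab1 _ cd1 n1] at u1
  have u3 : 1 < (((ab ∪ cd) ∪ (ac ∪ bd)) ∪ (ad ∪ bc))ᶜ.card := by
    rw [card_compl, hα]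
    omega
  obtain ⟨e, he, f, hf, hef⟩ := one_lt_card.1 u3
  have free : ∀ x, x ∈ (((ab ∪ cd) ∪ (ac ∪ bd)) ∪ (ad ∪ bc))ᶜ → ∀ l ∈ L, x ∈ l →
      (l ∩ {a, b, c, d}).card ≤ 1 := by
    intro x hx l hl hxl
    by_contra hcon
    rw [mem_compl, mem_union, mem_union, mem_union, mem_union, mem_union] at hx
    obtain ⟨y, hy, z, hz, hyz⟩ := one_lt_card.1 (not_le.1 hcon)
    rw [mem_inter] at hy hz
    obtain ⟨hy1, hy2⟩ := hy
    obtain ⟨hz1, hz2⟩ := hz
    simp only [mem_insert, mem_singleton] at hy2 hz2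
    apply hx
    rcases hy2 with rfl | rfl | rfl | rfl <;> rcases hz2 with rfl | rfl | rfl | rfl
    · exact absurd rfl hyz
    · rw [line_eq hL ab1 hl hyz ab2 ab3 hy1 hz1]; tauto
    · rw [line_eq hL ac1 hl hyz ac2 ac3 hy1 hz1]; tauto
    · rw [line_eq hL ad1 hl hyz ad2 ad3 hy1 hz1]; tauto
    · rw [line_eq hL ab1 hl hyz ab3 ab2 hy1 hz1]; tauto
    · exact absurd rfl hyz
    · rw [line_eq hL bc1 hl hyz bc2 bc3 hy1 hz1]; tauto
    · rw [line_eq hL bd1 hl hyz bd2 bd3 hy1 hz1]; tauto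
    · rw [line_eq hL ac1 hl hyz ac3 ac2 hy1 hz1]; tauto
    · rw [line_eq hL bc1 hl hyz bc3 bc2 hy1 hz1]; tauto
    · exact absurd rfl hyz
    · rw [line_eq hL cd1 hl hyz cd2 cd3 hy1 hz1]; tauto
    · rw [line_eq hL ad1 hl hyz ad3 ad2 hy1 hz1]; tauto
    · rw [line_eq hL bd1 hl hyz bd3 bd2 hy1 hz1]; tauto
    · rw [line_eq hL cd1 hl hyz cd3 cd2 hy1 hz1]; tauto
    · exact absurd rfl hyz
  exact ⟨e, f, hef, free e he, free f hf⟩

/-- a line through two free points contains no vertex -/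
theorem no_vertex (hα : Fintype.card α = 21) (hL : Cfsg.IsSteinerSystem 2 5 L) {S : Finset α}
    (hS : S.card = 4) (hi : ∀ l ∈ L, (l ∩ S).card ≤ 2) {e f : α} (hef : e ≠ f)
    (he : ∀ l ∈ L, e ∈ l → (l ∩ S).card ≤ 1) (hf : ∀ l ∈ L, f ∈ l → (l ∩ S).card ≤ 1)
    {l : Finset α} (hl : l ∈ L) (hel : e ∈ l) (hfl : f ∈ l) : ∀ a ∈ S, a ∉ l := by
  intro a haS hal
  obtain ⟨b, c, d, hbc, hbd, hcd, hS'⟩ := card_eq_three.1
    (show (S.erase a).card = 3 by rw [card_erase_of_mem haS, hS])
  have hb : b ∈ S.erase a := by rw [hS']; simp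
  have hc : c ∈ S.erase a := by rw [hS']; simp
  have hd : d ∈ S.erase a := by rw [hS']; simp
  rw [mem_erase] at hb hc hd
  have mem3 : ∀ l ∈ L, ∀ x y z : α, x ≠ y → x ≠ z → y ≠ z → x ∈ S →
      y ∈ S → z ∈ S → x ∈ l → y ∈ l → z ∉ l := by
    intro l hl x y z h1 h2 h3 h4 h5 h6 h7 h8 h9
    have := three_le_card h1 h2 h3 (mem_inter.2 ⟨h7, h4⟩) (mem_inter.2 ⟨h8, h5⟩)
      (mem_inter.2 ⟨h9, h6⟩)
    have := hi l hl
    omega
  have hl1 : ∀ x ∈ S, x ≠ a → x ∉ l := by
    intro x hx hxa hxl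
    have := two_le_card hxa (mem_inter.2 ⟨hxl, hx⟩) (mem_inter.2 ⟨hal, haS⟩)
    have := he l hl hel
    omega
  have ea : e ≠ a := by
    rintro rfl
    obtain ⟨m, hm1, hm2, hm3⟩ := exists_line hL hb.1.symm
    have := two_le_card hb.1.symm (mem_inter.2 ⟨hm2, haS⟩) (mem_inter.2 ⟨hm3, hb.2⟩)
    have := he m hm1 hm2
    omega
  have fa : f ≠ a := by
    rintro rfl
    obtain ⟨m, hm1, hm2, hm3⟩ := exists_line hL hb.1.symm
    have := two_le_card hb.1.symm (mem_inter.2 ⟨hm2, haS⟩) (mem_inter.2 ⟨hm3, hb.2⟩)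
    have := hf m hm1 hm2
    omega
  -- the point where `l` meets a side not through `a`
  have side : ∀ x y : α, x ∈ S → y ∈ S → x ≠ a → y ≠ a → x ≠ y → ∃ m ∈ L, x ∈ m ∧ y ∈ m ∧
      ∃ z, z ∈ m ∧ z ∈ l ∧ z ≠ a ∧ z ≠ e ∧ z ≠ f := by
    intro x y hx hy hxa hya hxy
    obtain ⟨m, hm1, hm2, hm3⟩ := exists_line hL hxy
    refine ⟨m, hm1, hm2, hm3, ?_⟩
    have hne : m ≠ l := by
      rintro rfl
      exact hl1 x hx hxa hm2
    have h1 := inter_card hα hL hm1 hl hne
    obtain ⟨z, hz⟩ := card_pos.1 (by omega : 0 < (m ∩ l).card)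
    rw [mem_inter] at hz
    refine ⟨z, hz.1, hz.2, ?_, ?_, ?_⟩
    · rintro rfl
      exact mem3 m hm1 x y z hxy hxa hya hx hy haS hm2 hm3 hz.1
    · rintro rfl
      have := two_le_card hxy (mem_inter.2 ⟨hm2, hx⟩) (mem_inter.2 ⟨hm3, hy⟩)
      have := he m hm1 hz.1
      omega
    · rintro rfl
      have := two_le_card hxy (mem_inter.2 ⟨hm2, hx⟩) (mem_inter.2 ⟨hm3, hy⟩)
      have := hf m hm1 hz.1
      omega
  obtain ⟨m1, p1, p2, p3, x, x1, x2, x3, x4, x5⟩ := side b c hb.2 hc.2 hb.1 hc.1 hbc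
  obtain ⟨m2, q1, q2, q3, y, y1, y2, y3, y4, y5⟩ := side b d hb.2 hd.2 hb.1 hd.1 hbd
  obtain ⟨m3, r1, r2, r3, z, z1, z2, z3, z4, z5⟩ := side c d hc.2 hd.2 hc.1 hd.1 hcd
  have xy : x ≠ y := by
    rintro rfl
    have hxb : x ≠ b := by
      rintro rfl
      exact hl1 x hb.2 hb.1 x2
    rw [line_eq hL p1 q1 hxb x1 p2 y1 q2] at p3
    exact mem3 m2 q1 b d c hbd hbc hcd.symm hb.2 hd.2 hc.2 q2 q3 p3
  have xz : x ≠ z := by
    rintro rfl
    have hxc : x ≠ c := by
      rintro rfl
      exact hl1 x hc.2 hc.1 x2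
    rw [line_eq hL p1 r1 hxc x1 p3 z1 r2] at p2
    exact mem3 m3 r1 c d b hcd hbc.symm hbd.symm hc.2 hd.2 hb.2 r2 r3 p2
  have yz : y ≠ z := by
    rintro rfl
    have hxd : y ≠ d := by
      rintro rfl
      exact hl1 y hd.2 hd.1 y2
    rw [line_eq hL q1 r1 hxd y1 q3 z1 r3] at q2
    exact mem3 m3 r1 c d b hcd hbc.symm hbd.symm hc.2 hd.2 hb.2 r2 r3 q2
  have h6 : ({e, f, a, x, y, z} : Finset α).card = 6 := by
    rw [card_insert_of_notMem, card_insert_of_notMem, card_insert_of_notMem,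
        card_insert_of_notMem, card_insert_of_notMem, card_singleton]
    all_goals simp only [mem_insert, mem_singleton, not_or]
    · exact yz
    · exact ⟨xy, xz⟩
    · exact ⟨x3.symm, y3.symm, z3.symm⟩
    · exact ⟨fa, x5.symm, y5.symm, z5.symm⟩
    · exact ⟨hef, ea, x4.symm, y4.symm, z4.symm⟩
  have h7 : ({e, f, a, x, y, z} : Finset α) ⊆ l := by
    intro w hw
    simp only [mem_insert, mem_singleton] at hw
    rcases hw with rfl | rfl | rfl | rfl | rfl | rfl <;> assumption
  have := card_le_card h7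
  rw [h6, hL.1 l hl] at this
  omega

/-- an independent 4-set lies in a hyperoval -/
theorem exists_oval (hα : Fintype.card α = 21) (hL : Cfsg.IsSteinerSystem 2 5 L) {S : Finset α}
    (hS : S.card = 4) (hi : ∀ l ∈ L, (l ∩ S).card ≤ 2) :
    ∃ H : Finset α, (H.card = 6 ∧ ∀ l ∈ L, (l ∩ H).card ≤ 2) ∧ S ⊆ H := by
  obtain ⟨e, f, hef, he, hf⟩ := exists_two_free hα hL hS hi
  have notS : ∀ x, (∀ l ∈ L, x ∈ l → (l ∩ S).card ≤ 1) → x ∉ S := by
    intro x hx hxS
    obtain ⟨y, hy, hyx⟩ : ∃ y ∈ S, y ≠ x := exists_mem_ne (by omega) _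
    obtain ⟨m, hm1, hm2, hm3⟩ := exists_line hL hyx
    have := two_le_card hyx (mem_inter.2 ⟨hm2, hy⟩) (mem_inter.2 ⟨hm3, hxS⟩)
    have := hx m hm1 hm3
    omega
  refine ⟨insert e (insert f S), ⟨?_, ?_⟩, ?_⟩
  · rw [card_insert_of_notMem, card_insert_of_notMem (notS f hf), hS]
    rw [mem_insert, not_or]
    exact ⟨hef, notS e he⟩
  · intro l hl
    by_cases h1 : e ∈ l
    · by_cases h2 : f ∈ l
      · have h3 := no_vertex hα hL hS hi hef he hf hl h1 h2
        have : l ∩ insert e (insert f S) ⊆ {e, f} := by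
          intro x hx
          rw [mem_inter, mem_insert, mem_insert] at hx
          rw [mem_insert, mem_singleton]
          rcases hx.2 with h | h | h
          · exact Or.inl h
          · exact Or.inr h
          · exact absurd hx.1 (h3 x h)
        exact (card_le_card this).trans card_le_two
      · have : l ∩ insert e (insert f S) ⊆ insert e (l ∩ S) := by
          intro x hx
          rw [mem_inter, mem_insert, mem_insert] at hx
          rw [mem_insert, mem_inter]
          rcases hx.2 with h | h | h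
          · exact Or.inl h
          · exact absurd (h ▸ hx.1) h2
          · exact Or.inr ⟨hx.1, h⟩
        have h4 := (card_le_card this).trans (card_insert_le _ _)
        have := he l hl h1
        omega
    · by_cases h2 : f ∈ l
      · have : l ∩ insert e (insert f S) ⊆ insert f (l ∩ S) := by
          intro x hx
          rw [mem_inter, mem_insert, mem_insert] at hx
          rw [mem_insert, mem_inter]
          rcases hx.2 with h | h | h
          · exact absurd (h ▸ hx.1) h1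
          · exact Or.inl h
          · exact Or.inr ⟨hx.1, h⟩
        have h4 := (card_le_card this).trans (card_insert_le _ _)
        have := hf l hl h2
        omega
      · have : l ∩ insert e (insert f S) ⊆ l ∩ S := by
          intro x hx
          rw [mem_inter, mem_insert, mem_insert] at hx
          rw [mem_inter]
          rcases hx.2 with h | h | h
          · exact absurd (h ▸ hx.1) h1
          · exact absurd (h ▸ hx.1) h2
          · exact ⟨hx.1, h⟩
        exact (card_le_card this).trans (hi l hl)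
  · intro x hx
    rw [mem_insert, mem_insert]
    exact Or.inr (Or.inr hx)

/-- there are independent 4-sets -/
theorem exists_four (hα : Fintype.card α = 21) (hL : Cfsg.IsSteinerSystem 2 5 L) :
    ∃ S : Finset α, S.card = 4 ∧ ∀ l ∈ L, (l ∩ S).card ≤ 2 := by
  obtain ⟨x, y, hxy⟩ : ∃ x y : α, x ≠ y := by
    have : Nontrivial α := Fintype.one_lt_card_iff_nontrivial.1 (by omega)
    exact exists_pair_ne α
  obtain ⟨l, hl, -, -⟩ := exists_line hL hxy
  have h16 : 0 < lᶜ.card := by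
    rw [card_compl, hα, hL.1 l hl]
    norm_num
  obtain ⟨c, hc⟩ := card_pos.1 h16
  rw [mem_compl] at hc
  obtain ⟨p, hp⟩ : l.Nonempty := card_pos.1 (by rw [hL.1 l hl]; norm_num)
  have hpc : p ≠ c := by
    rintro rfl
    exact hc hp
  obtain ⟨m, hm, hm1, hm2⟩ := exists_line hL hpc
  have hlm : l ≠ m := by
    rintro rfl
    exact hc hm2
  obtain ⟨a, b, hab, hS1⟩ : ∃ a b, a ≠ b ∧ {a, b} ⊆ l.erase p := by
    obtain ⟨t, ht, ht2⟩ := exists_subset_card_eq (s := l.erase p) (n := 2)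
      (by rw [card_erase_of_mem hp, hL.1 l hl]; norm_num)
    obtain ⟨a, b, hab, rfl⟩ := card_eq_two.1 ht2
    exact ⟨a, b, hab, ht⟩
  obtain ⟨c', d, hcd, hS2⟩ : ∃ a b, a ≠ b ∧ {a, b} ⊆ m.erase p := by
    obtain ⟨t, ht, ht2⟩ := exists_subset_card_eq (s := m.erase p) (n := 2)
      (by rw [card_erase_of_mem hm1, hL.1 m hm]; norm_num)
    obtain ⟨a, b, hab, rfl⟩ := card_eq_two.1 ht2
    exact ⟨a, b, hab, ht⟩
  have ha := hS1 (mem_insert_self a {b})
  have hb := hS1 (mem_insert_of_mem (mem_singleton_self b))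
  have hc' := hS2 (mem_insert_self c' {d})
  have hd := hS2 (mem_insert_of_mem (mem_singleton_self d))
  rw [mem_erase] at ha hb hc' hd
  have hlp : ∀ w, w ∈ l → w ∈ m → w = p := by
    intro w h1 h2
    by_contra hwp
    exact hlm (line_eq hL hl hm hwp h1 hp h2 hm1)
  have hac : a ≠ c' := by
    rintro rfl
    exact ha.1 (hlp a ha.2 hc'.2)
  have had : a ≠ d := by
    rintro rfl
    exact ha.1 (hlp a ha.2 hd.2)
  have hbc : b ≠ c' := by
    rintro rfl
    exact hb.1 (hlp b hb.2 hc'.2)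
  have hbd : b ≠ d := by
    rintro rfl
    exact hb.1 (hlp b hb.2 hd.2)
  refine ⟨{a, b, c', d}, ?_, ?_⟩
  · rw [card_insert_of_notMem, card_insert_of_notMem, card_insert_of_notMem, card_singleton]
    all_goals simp only [mem_insert, mem_singleton, not_or]
    · exact hcd
    · exact ⟨hbc, hbd⟩
    · exact ⟨hab, hac, had⟩
  · intro k hk
    by_cases h1 : a ∈ k ∧ b ∈ k
    · have hkl := line_eq hL hk hl hab h1.1 h1.2 ha.2 hb.2
      have : k ∩ {a, b, c', d} ⊆ {a, b} := by
        intro w hw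
        rw [hkl] at hw
        simp only [mem_inter, mem_insert, mem_singleton] at hw ⊢
        obtain ⟨hw1, rfl | rfl | rfl | rfl⟩ := hw
        · exact Or.inl rfl
        · exact Or.inr rfl
        · exact absurd (hlp _ hw1 hc'.2) hc'.1
        · exact absurd (hlp _ hw1 hd.2) hd.1
      exact (card_le_card this).trans card_le_two
    by_cases h2 : c' ∈ k ∧ d ∈ k
    · have hkm := line_eq hL hk hm hcd h2.1 h2.2 hc'.2 hd.2
      have : k ∩ {a, b, c', d} ⊆ {c', d} := by
        intro w hw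
        rw [hkm] at hw
        simp only [mem_inter, mem_insert, mem_singleton] at hw ⊢
        obtain ⟨hw1, rfl | rfl | rfl | rfl⟩ := hw
        · exact absurd (hlp _ ha.2 hw1) ha.1
        · exact absurd (hlp _ hb.2 hw1) hb.1
        · exact Or.inl rfl
        · exact Or.inr rfl
      exact (card_le_card this).trans card_le_two
    · have e1 : (k ∩ {a, b}).card ≤ 1 := by
        by_contra hcon
        push Not at hcon
        have h3 : k ∩ {a, b} = {a, b} :=
          eq_of_subset_of_card_le inter_subset_right (by rw [card_pair hab]; omega)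
        have h4 : ({a, b} : Finset α) ⊆ k := by rw [← h3]; exact inter_subset_left
        exact h1 ⟨h4 (by simp), h4 (by simp)⟩
      have e2 : (k ∩ {c', d}).card ≤ 1 := by
        by_contra hcon
        push Not at hcon
        have h3 : k ∩ {c', d} = {c', d} :=
          eq_of_subset_of_card_le inter_subset_right (by rw [card_pair hcd]; omega)
        have h4 : ({c', d} : Finset α) ⊆ k := by rw [← h3]; exact inter_subset_left
        exact h2 ⟨h4 (by simp), h4 (by simp)⟩
      have e3 : k ∩ {a, b, c', d} = (k ∩ {a, b}) ∪ (k ∩ {c', d}) := by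
        rw [← inter_union_distrib_left]
        congr 1
        ext w
        simp only [mem_insert, mem_singleton, mem_union]
        tauto
      rw [e3]
      have := card_union_le (k ∩ {a, b}) (k ∩ {c', d})
      omega

/-- naming the points of a hyperoval -/
theorem exists_name {H : Finset α} (hH : H.card = 6) :
    ∃ h : Fin 6 → α, Function.Injective h ∧ Finset.univ.image h = H := by
  refine ⟨fun i => ((H.equivFinOfCardEq hH).symm i : α),
    Subtype.val_injective.comp (H.equivFinOfCardEq hH).symm.injective, ?_⟩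
  ext x
  simp only [mem_image, mem_univ, true_and]
  constructor
  · rintro ⟨i, rfl⟩
    exact ((H.equivFinOfCardEq hH).symm i).2
  · intro hx
    exact ⟨H.equivFinOfCardEq hH ⟨x, hx⟩, by rw [Equiv.symm_apply_apply]⟩

/-- every plane of order 4 has a standard labelling -/
theorem exists_standard (hα : Fintype.card α = 21) (hL : Cfsg.IsSteinerSystem 2 5 L) :
    ∃ e : Fin 21 ≃ α, ∀ s : Finset (Fin 21), s.map e.toEmbedding ∈ L ↔ mask s ∈ Ls := by
  obtain ⟨S, hS, hi⟩ := exists_four hα hL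
  obtain ⟨H, ⟨hH, hHi⟩, -⟩ := exists_oval hα hL hS hi
  obtain ⟨h, hh, rfl⟩ := exists_name hH
  obtain ⟨e, -, he⟩ := exists_standard_label hα (frame_of_oval hα hL hh hHi)
  exact ⟨e, he⟩

end Cfsg.Agent.H870.Oval
end
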